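import Mathlib
import Cfsg.Agent.TcData.SY222c.I729.Rep0

set_option autoImplicit false
set_option Elab.async false
set_option maxRecDepth 100000
set_option linter.all false

namespace Cfsg.Agent.TcData.SY222c.I729

open Cfsg.Spor Cfsg.Agent.Lib.TcFacts Cfsg.Agent.Lib.TcBits Cfsg.Agent.Lib.TcPres Cfsg.Agent.Lib.SchurDefs.Y222c Cfsg.Agent.TcData.SY222c

theorem e_6 : ∀ j, j < 10 → chkW (extra.getD 6 1) j = true := by decide +kernel

end Cfsg.Agent.TcData.SY222c.I729
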