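import Mathlib
import Cfsg.Agent.TcData.SY222c.I729.Chk0

set_option autoImplicit false
set_option Elab.async false
set_option maxRecDepth 100000
set_option linter.all false

namespace Cfsg.Agent.TcData.SY222c.I729

open Cfsg.Spor Cfsg.Agent.Lib.TcFacts Cfsg.Agent.Lib.TcBits Cfsg.Agent.Lib.TcPres Cfsg.Agent.Lib.SchurDefs.Y222c Cfsg.Agent.TcData.SY222c

theorem c0 : Block F al 0 256 255 := b0

theorem c1 : Block F al 0 512 501 :=
  block_comb c0 b1 (Nat.zero_le _) (Nat.le_of_ble_eq_true rfl) rfl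

theorem c2 : Block F al 0 768 659 :=
  block_comb c1 b2 (Nat.zero_le _) (Nat.le_of_ble_eq_true rfl) rfl

theorem c3 : Block F al 0 1024 710 :=
  block_comb c2 b3 (Nat.zero_le _) (Nat.le_of_ble_eq_true rfl) rfl

theorem c4 : Block F al 0 1280 724 :=
  block_comb c3 b4 (Nat.zero_le _) (Nat.le_of_ble_eq_true rfl) rfl

theorem c5 : Block F al 0 1536 729 :=
  block_comb c4 b5 (Nat.zero_le _) (Nat.le_of_ble_eq_true rfl) rfl

theorem c6 : Block F al 0 1792 729 :=
  block_comb c5 b6 (Nat.zero_le _) (Nat.le_of_ble_eq_true rfl) rfl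

end Cfsg.Agent.TcData.SY222c.I729
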