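import Mathlib
import Cfsg.Agent.TcData.SY222c.I729.Rel0
import Cfsg.Agent.TcData.SY222c.I729.Rel1
import Cfsg.Agent.TcData.SY222c.I729.Up

set_option autoImplicit false
set_option Elab.async false
set_option maxRecDepth 100000
set_option linter.all false

namespace Cfsg.Agent.TcData.SY222c.I729

open Cfsg.Spor Cfsg.Agent.Lib.TcFacts Cfsg.Agent.Lib.TcBits Cfsg.Agent.Lib.TcPres Cfsg.Agent.Lib.SchurDefs.Y222c Cfsg.Agent.TcData.SY222c

theorem hc : ∀ x ∈ nodesL, ∀ y ∈ nodesL, ∀ j, j < 10 →
    chkW ((FreeGroup.of x * FreeGroup.of y) ^ coxLabel edges x y) j = true := by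
  intro x hx y hy
  simp only [nodesL, List.mem_cons, List.not_mem_nil, or_false] at hx hy
  rcases hx with rfl | rfl | rfl | rfl | rfl | rfl | rfl <;> rcases hy with rfl | rfl | rfl | rfl | rfl | rfl | rfl
  exacts [c_b_b,
    c_b_c,
    c_b_d,
    c_b_e,
    c_b_f,
    c_b_h,
    c_b_i,
    c_c_b,
    c_c_c,
    c_c_d,
    c_c_e,
    c_c_f,
    c_c_h,
    c_c_i,
    c_d_b,
    c_d_c,
    c_d_d,
    c_d_e,
    c_d_f,
    c_d_h,
    c_d_i,
    c_e_b,
    c_e_c,
    c_e_d,
    c_e_e,
    c_e_f,
    c_e_h,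
    c_e_i,
    c_f_b,
    c_f_c,
    c_f_d,
    c_f_e,
    c_f_f,
    c_f_h,
    c_f_i,
    c_h_b,
    c_h_c,
    c_h_d,
    c_h_e,
    c_h_f,
    c_h_h,
    c_h_i,
    c_i_b,
    c_i_c,
    c_i_d,
    c_i_e,
    c_i_f,
    c_i_h,
    c_i_i]

theorem he0 : ∀ i, i < extra.length → ∀ j, j < 10 → chkW (extra.getD i 1) j = true := by
  intro i hi
  have hl : extra.length = 7 := rfl
  rw [hl] at hi
  interval_cases i
  exacts [e_0, e_1, e_2, e_3, e_4, e_5, e_6]

theorem he : ∀ r ∈ extra, ∀ j, j < 10 → chkW r j = true := by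
  intro r hr
  obtain ⟨i, hi, rfl⟩ := List.getElem_of_mem hr
  have := he0 i hi
  rwa [List.getD_eq_getElem _ _ hi] at this

theorem hR : ∀ r ∈ RR, FreeGroup.lift (genPerm pr) r = 1 :=
  lift_of_checks hnodes hv (fun x hx y hy => of_chkW (hc x hx y hy)) (fun r hr => of_chkW (he r hr))

/-- The representation. -/
noncomputable def Phi : PresentedGroup RR →* Equiv.Perm ℕ := repOf RR pr hR

/-- The generators, in the free group. -/
noncomputable def gensFG : List (FreeGroup Gen) := gensL.map FreeGroup.of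

/-- The generators of the subgroup, as a list. -/
noncomputable def SL : List (FreeGroup Gen) := [c, d, e, f, h, i]

theorem hSL {Q : FreeGroup Gen → Prop} (hsl : ∀ s ∈ SL, Q s) : ∀ s ∈ SS, Q s := by
  intro s hs
  simp only [SS, Set.mem_insert_iff, Set.mem_singleton_iff] at hs
  rcases hs with rfl | rfl | rfl | rfl | rfl | rfl
  exacts [hsl _ (by simp [SL]),
    hsl _ (by simp [SL]),
    hsl _ (by simp [SL]),
    hsl _ (by simp [SL]),
    hsl _ (by simp [SL]),
    hsl _ (by simp [SL])]

theorem hfixL : ∀ s ∈ SL, wordApply (sgnProg pr) s.toWord 1 = 1 := by decide +kernel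

theorem hfix : ∀ h ∈ HH, Phi h 0 = 0 := fix_of_words hR hv (hSL hfixL)

theorem hSLmem : ∀ s ∈ SL, PresentedGroup.mk RR s ∈ HH := by
  intro s hs
  simp only [SL, List.mem_cons, List.not_mem_nil, or_false] at hs
  rcases hs with rfl | rfl | rfl | rfl | rfl | rfl
  exacts [mem_map_closure (by simp), mem_map_closure (by simp), mem_map_closure (by simp), mem_map_closure (by simp), mem_map_closure (by simp), mem_map_closure (by simp)]

theorem hgens : ∀ r ∈ gensFG, PresentedGroup.mk RR r ∈ (⊤ : Subgroup (PresentedGroup RR)) :=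
  fun _ _ => trivial

/-- A generation of the orbit of the base point. -/
def G0 : ℕ := nat_lit 0x2bff

theorem G0_eq : grow pr (gensFG.map FreeGroup.toWord) 1 (2 ^ 0) = G0 := by decide +kernel

theorem G0_s : Sound Phi ⊤ 0 G0 :=
  G0_eq ▸ sound_grow hR hv gensFG hgens 1 (2 ^ 0) (sound_single _ 0)

/-- A generation of the orbit of the base point. -/
def G1 : ℕ := nat_lit 0x40626bfff

theorem G1_eq : grow pr (gensFG.map FreeGroup.toWord) 1 G0 = G1 := by decide +kernel

theorem G1_s : Sound Phi ⊤ 0 G1 :=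
  G1_eq ▸ sound_grow hR hv gensFG hgens 1 G0 G0_s

/-- A generation of the orbit of the base point. -/
def G2 : ℕ := nat_lit 0x800001200025000d808f05f1797b7ffff

theorem G2_eq : grow pr (gensFG.map FreeGroup.toWord) 1 G1 = G2 := by decide +kernel

theorem G2_s : Sound Phi ⊤ 0 G2 :=
  G2_eq ▸ sound_grow hR hv gensFG hgens 1 G1 G1_s

/-- A generation of the orbit of the base point. -/
def G3 : ℕ := nat_lit 0x200000000000202030000000040c183800020460e38c800c58e333614cf99b6de6f9b6ff6dedffdbf7ff7ffeffffffffffffffffff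

theorem G3_eq : grow pr (gensFG.map FreeGroup.toWord) 1 G2 = G3 := by decide +kernel

theorem G3_s : Sound Phi ⊤ 0 G3 :=
  G3_eq ▸ sound_grow hR hv gensFG hgens 1 G2 G2_s

/-- A generation of the orbit of the base point. -/
def G4 : ℕ := nat_lit 0x2000000000c4f400000000049edfb0000000096f97f7ff80000092f7fdffffe0005f257fffffffc00fe5ffffffff127f7fffffff2bffffffffbffffffffffffffffffffffffffffffffffffffffffffffffff

theorem G4_eq : grow pr (gensFG.map FreeGroup.toWord) 1 G3 = G4 := by decide +kernel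

theorem G4_s : Sound Phi ⊤ 0 G4 :=
  G4_eq ▸ sound_grow hR hv gensFG hgens 1 G3 G3_s

/-- A generation of the orbit of the base point. -/
def G5 : ℕ := nat_lit 0x98d074032f1800592fe0c00221af7fff00c02555edffffff0304aadffdffffffe0e2adbffffffffff197fb7fffffffff9aff7ffffffffdb7fffffffffbffffffffffffffffffffffffffffffffffffffffffffffffffffffffffff

theorem G5_eq : grow pr (gensFG.map FreeGroup.toWord) 1 G4 = G5 := by decide +kernel

theorem G5_s : Sound Phi ⊤ 0 G5 :=
  G5_eq ▸ sound_grow hR hv gensFG hgens 1 G4 G4_s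

/-- A generation of the orbit of the base point. -/
def G6 : ℕ := nat_lit 0x99f7ffffffffffffffffffffffffffffffffffffffffffffffffffffffffffffffffffffffffffffffffffffffffffffffffffffffffffffffffffffffffffffffffffffffffffffffffffffffffffffffffffffffffffffffffff

theorem G6_eq : grow pr (gensFG.map FreeGroup.toWord) 1 G5 = G6 := by decide +kernel

theorem G6_s : Sound Phi ⊤ 0 G6 :=
  G6_eq ▸ sound_grow hR hv gensFG hgens 1 G5 G5_s

/-- A generation of the orbit of the base point. -/
def G7 : ℕ := nat_lit 0x9bffffffffffffffffffffffffffffffffffffffffffffffffffffffffffffffffffffffffffffffffffffffffffffffffffffffffffffffffffffffffffffffffffffffffffffffffffffffffffffffffffffffffffffffffffff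

theorem G7_eq : grow pr (gensFG.map FreeGroup.toWord) 1 G6 = G7 := by decide +kernel

theorem G7_s : Sound Phi ⊤ 0 G7 :=
  G7_eq ▸ sound_grow hR hv gensFG hgens 1 G6 G6_s

/-- A generation of the orbit of the base point. -/
def G8 : ℕ := nat_lit 0xbfffffffffffffffffffffffffffffffffffffffffffffffffffffffffffffffffffffffffffffffffffffffffffffffffffffffffffffffffffffffffffffffffffffffffffffffffffffffffffffffffffffffffffffffffffff

theorem G8_eq : grow pr (gensFG.map FreeGroup.toWord) 1 G7 = G8 := by decide +kernel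

theorem G8_s : Sound Phi ⊤ 0 G8 :=
  G8_eq ▸ sound_grow hR hv gensFG hgens 1 G7 G7_s

/-- A generation of the orbit of the base point. -/
def G9 : ℕ := nat_lit 0x1ffffffffffffffffffffffffffffffffffffffffffffffffffffffffffffffffffffffffffffffffffffffffffffffffffffffffffffffffffffffffffffffffffffffffffffffffffffffffffffffffffffffffffffffffffffff

theorem G9_eq : grow pr (gensFG.map FreeGroup.toWord) 1 G8 = G9 := by decide +kernel

theorem G9_s : Sound Phi ⊤ 0 G9 :=
  G9_eq ▸ sound_grow hR hv gensFG hgens 1 G8 G8_s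

/-- A generation of the orbit of the base point. -/
def G10 : ℕ := nat_lit 0x1ffffffffffffffffffffffffffffffffffffffffffffffffffffffffffffffffffffffffffffffffffffffffffffffffffffffffffffffffffffffffffffffffffffffffffffffffffffffffffffffffffffffffffffffffffffff

theorem G10_eq : grow pr (gensFG.map FreeGroup.toWord) 1 G9 = G10 := by decide +kernel

theorem G10_s : Sound Phi ⊤ 0 G10 :=
  G10_eq ▸ sound_grow hR hv gensFG hgens 1 G9 G9_s

theorem Gfull : G10 = 2 ^ 729 - 1 := by decide +kernel

theorem hs : ∀ i, i < 729 → ∃ g, Phi g 0 = i := exists_of_sound (Gfull ▸ G10_s)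

theorem bij : HH.index = 729 ∧ Function.Injective (betaF HH Phi hfix) ∧
    (∀ q, betaF HH Phi hfix q < 729) ∧ ∀ i, i < 729 → ∃ q, betaF HH Phi hfix q = i :=
  index_eq_and_bij HH hfix index_le'.1 index_le'.2 hs

end Cfsg.Agent.TcData.SY222c.I729
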